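import Mathlib
import Cfsg.Agent.Lib.Reg66.SSClass
import Cfsg.Agent.Lib.Unitary.Basic
import Cfsg.Agent.S2587
import Cfsg.Agent.S2588

/-!
# Classes of elements of prime order in the unitary group
-/

set_option autoImplicit false

namespace H66

open Polynomial Module H65 Matrix H11.U

variable {K L : Type*} [Field K] [Fintype K] [Field L] [Algebra K L] {q : ℕ} [IsSq K q]
  {r : ℕ} [Fact r.Prime] {χ : AddChar (ZMod r) L}

theorem exists_frob_ext (L : Type*) [Field L] [Algebra K L] :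
    ∃ σ : L →+* L, (∀ y, σ y = y ^ q) ∧
      σ.comp (algebraMap K L) = (algebraMap K L).comp (cj q) := by
  obtain ⟨p, k, hp, _, hq, -⟩ := exists_char_pow K q
  have := Fact.mk hp
  have : CharP L p := charP_of_injective_algebraMap (algebraMap K L).injective p
  refine ⟨iterateFrobenius L p k, fun y => by rw [hq]; rfl, RingHom.ext fun x => ?_⟩
  rw [RingHom.comp_apply, RingHom.comp_apply, cj_apply, map_pow, hq]; rfl

theorem charpoly_cstar_pow {n : Type*} [Fintype n] [DecidableEq n] (hr : (r : K) ≠ 0)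
    (u : (ZMod r)ˣ) (hu : (u : ZMod r) = q) {A : Matrix n n K} (hA : A ^ r = 1)
    {m : ZMod r → ℕ} (h : A.charpoly.map (algebraMap K L) = fm χ m) :
    (cstar (cj q) (A ^ (r - 1))).charpoly.map (algebraMap K L) =
      ∏ a, (X - C (χ ((-u : (ZMod r)ˣ) * a))) ^ m a := by
  obtain ⟨σ, hσ, hσ'⟩ := exists_frob_ext (K := K) (q := q) L
  have h1 := charpoly_pow_fm hr (x := Matrix.toLin' A)
    (by rw [← toLin'_pow', toLin'_eq_one_iff, hA]) (by rwa [Matrix.charpoly_toLin']) (r - 1)
  rw [← toLin'_pow', Matrix.charpoly_toLin'] at h1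
  rw [cstar_apply, Matrix.charpoly_transpose, Matrix.charpoly_map, Polynomial.map_map, ← hσ',
    ← Polynomial.map_map, h1, natCast_sub_one_zmod]
  simp [Polynomial.map_prod, hσ, chi_pow, hu]

theorem exists_GU_fm_iff (hχ : Function.Injective χ) (hr : (r : K) ≠ 0)
    (u : (ZMod r)ˣ) (hu : (u : ZMod r) = q) (n : ℕ) (m : ZMod r → ℕ) :
    (∀ a, m ((-u : (ZMod r)ˣ) * a) = m a) ∧ ∑ a, m a = n ↔
      ∃ g : Cfsg.GU n K q, g ^ r = 1 ∧ g.1.1.charpoly.map (algebraMap K L) = fm χ m := by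
  have hr1 : r - 1 + 1 = r := Nat.sub_add_cancel (Fact.out : r.Prime).pos
  have hinv : ∀ A : Matrix (Fin n) (Fin n) K, A ^ r = 1 →
      cstar (cj q) (A ^ (r - 1)) * cstar (cj q) A = 1 := fun A hA => by
    rw [← cstar_mul, ← pow_succ', hr1, hA, cstar_one]
  constructor
  · rintro ⟨h1, h2⟩
    obtain ⟨A, hA, hc⟩ := exists_matrix_fm (F := K) hχ ((-u) ^ 2)
      (by simp [hu, IsSq.card_eq (F := K) (q := q)]) (inv_pow_of_inv h1 2) (n := Fin n)
      (by simp [h2])
    have hA' : IsUnit A := IsUnit.of_pow_eq_one hA (Fact.out : r.Prime).ne_zero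
    obtain ⟨B, hB⟩ := (Cfsg.Agent.S2588.result IsSq.card_eq hA'.unit).mpr (by
      rw [IsUnit.unit_spec]
      change IsConj A (cstar (cj q) A)⁻¹
      rw [Matrix.inv_eq_left_inv (hinv A hA)]
      refine isConj_of_charpoly_eq_of_squarefree (squarefree_X_pow_sub_one hr)
        (squarefree_X_pow_sub_one hr) (aeval_X_pow_sub_one.mpr hA) (aeval_X_pow_sub_one.mpr ?_)
        (Polynomial.map_injective _ (algebraMap K L).injective ?_)
      · have : ∀ (B : Matrix (Fin n) (Fin n) K) k, cstar (cj q) B ^ k = cstar (cj q) (B ^ k) :=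
          fun B k => by
            induction k with
            | zero => rw [pow_zero, pow_zero, cstar_one]
            | succ k ih => rw [pow_succ, ih, pow_succ', cstar_mul]
        rw [this, ← pow_mul, mul_comm, pow_mul, hA, one_pow, cstar_one]
      · rw [charpoly_cstar_pow hr u hu hA hc, (prod_mul_eq_fm_iff hχ _ m).mpr h1, hc])
    refine ⟨B, Subtype.ext ?_, ?_⟩
    · have := hB.pow r
      rw [show hA'.unit ^ r = 1 from Units.ext hA, isConj_one_right] at this
      exact this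
    · have := ((isConj_gl_iff_similar _ _).mp hB).charpoly_eq
      rw [Matrix.charpoly_toLin', Matrix.charpoly_toLin', IsUnit.unit_spec] at this
      rw [← this, hc]
  · rintro ⟨g, hg, hc⟩
    have h1 : g.1.1 ^ r = 1 := congrArg (fun x : Cfsg.GU n K q => x.1.1) hg
    have h2 := charpoly_cstar_pow hr u hu h1 hc
    have h3 : cstar (cj q) (g.1.1 ^ (r - 1)) = g.1.1 := left_inv_eq_right_inv (hinv _ h1)
      ((mem_GU_iff (σ := cj q) (fun _ => rfl) _).mp g.2)
    rw [h3, hc, eq_comm, prod_mul_eq_fm_iff hχ] at h2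
    rw [← Matrix.charpoly_toLin'] at hc
    exact ⟨h2, by rw [sum_eq_finrank hc]; simp⟩

theorem card_classes_GU (hχ : Function.Injective χ) (hr : (r : K) ≠ 0)
    (u : (ZMod r)ˣ) (hu : (u : ZMod r) = q) (n : ℕ) :
    Nat.card {C : ConjClasses (Cfsg.GU n K q) // ∃ g, ConjClasses.mk g = C ∧ g ^ r = 1} =
      Nat.card {m : ZMod r → ℕ // (∀ a, m ((-u : (ZMod r)ˣ) * a) = m a) ∧ ∑ a, m a = n} :=
  card_classes_fm hχ hr ((Units.coeHom _).comp (Cfsg.GU n K q).subtype)
    (fun g h _ hc => (Cfsg.Agent.S2587.result IsSq.card_eq g h).mpr ((isConj_gl_iff _ _).mpr hc)) _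
    (exists_GU_fm_iff hχ hr u hu n)

theorem orderOf_neg_of_even {u : (ZMod r)ˣ} {k : ℕ} (h : orderOf u = 2 * k) :
    orderOf (-u) = if Odd k then k else 2 * k := by
  rw [← neg_one_mul, ← pow_half_eq_neg_one h, ← pow_succ, orderOf_pow, h]
  have h1 : (2 * k).gcd (k + 1) = Nat.gcd 2 (k + 1) :=
    Nat.Coprime.gcd_mul_right_cancel 2 (by simp)
  rw [h1]
  split_ifs with hk
  · rw [Nat.gcd_eq_left hk.add_one.two_dvd]; omega
  · rw [Nat.coprime_two_left.mpr (Nat.not_odd_iff_even.mp hk).add_one, Nat.div_one]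

end H66
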