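import Mathlib
import Cfsg.Agent.Lib.MatConj.InvForm
import Cfsg.Agent.Lib.Unitary.Order
import Cfsg.Agent.Lib.StarAlg.SpConj
import Cfsg.Agent.Lib.QF.Classify

/-!
# Restriction of scalars for Hermitian forms
-/

set_option autoImplicit false

namespace H66

open Module H11.U Matrix

variable {K F : Type*} [Field K] [Field F] [Algebra F K]

section Res

variable {m ι : Type*} [Fintype m] [DecidableEq m] [Fintype ι] [DecidableEq ι]

/-- A `K`-matrix viewed as an `F`-matrix through the coordinates `Φ`. -/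
noncomputable def resMat (Φ : (ι → F) ≃ₗ[F] (m → K)) : Matrix m m K →* Matrix ι ι F where
  toFun M := LinearMap.toMatrixAlgEquiv' (Φ.symm.conjRingEquiv (H65.algEnd F M))
  map_one' := by simp only [map_one]
  map_mul' M N := by simp only [map_mul]

theorem resMat_mulVec (Φ : (ι → F) ≃ₗ[F] (m → K)) (M : Matrix m m K) (v : ι → F) :
    Φ (resMat Φ M *ᵥ v) = M *ᵥ Φ v := by
  change Φ (LinearMap.toMatrix' (Φ.symm.conj (H65.algEnd F M)) *ᵥ v) = _
  rw [LinearMap.toMatrix'_mulVec]
  simp [H65.algEnd_apply]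

theorem resMat_injective (Φ : (ι → F) ≃ₗ[F] (m → K)) : Function.Injective (resMat Φ) :=
  fun _ _ h => H65.algEnd_injective (F := F) (Φ.symm.conjRingEquiv.injective
    (LinearMap.toMatrixAlgEquiv'.injective h))

end Res

variable [Fintype K] {q : ℕ} [IsSq K q]

/-- `F` is the fixed field of the conjugation, with an `F`-linear retraction. -/
structure Retr (F K : Type*) [Field K] [Field F] [Algebra F K] [Fintype K] (q : ℕ) [IsSq K q] where
  π : K →ₗ[F] F
  cj_alg : ∀ k : F, cj q (algebraMap F K k) = algebraMap F K k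
  alg_π : ∀ x : K, cj q x = x → algebraMap F K (π x) = x

theorem nonempty_retr (h : ∀ x : K, cj q x = x ↔ ∃ k, algebraMap F K k = x) :
    Nonempty (Retr F K q) := by
  obtain ⟨π, hπ⟩ := (Algebra.linearMap F K).exists_leftInverse_of_injective
    (LinearMap.ker_eq_bot.mpr (algebraMap F K).injective)
  refine ⟨⟨π, fun k => (h _).mpr ⟨k, rfl⟩, fun x hx => ?_⟩⟩
  obtain ⟨k, rfl⟩ := (h x).mp hx
  exact congrArg _ (LinearMap.congr_fun hπ k)

omit [IsSq K q] in
theorem finrank_eq_two [Fintype F] (hK : Fintype.card K = q ^ 2) (hF : Fintype.card F = q) :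
    finrank F K = 2 := by
  have := Module.card_eq_pow_finrank (K := F) (V := K)
  rw [hK, hF] at this
  exact (Nat.pow_right_injective (hF ▸ Fintype.one_lt_card) this).symm

omit [IsSq K q] in
theorem finrank_res [Fintype F] (hK : Fintype.card K = q ^ 2) (hF : Fintype.card F = q) (m : ℕ) :
    finrank F (Fin m → K) = 2 * m := by
  simp [Module.finrank_pi_fintype, finrank_eq_two hK hF, mul_comm]

namespace Retr

variable (R : Retr F K q) {m : ℕ}

include R in
theorem cj_smul (c : F) (x : K) : cj q (c • x) = c • cj q x := by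
  rw [Algebra.smul_def, Algebra.smul_def, map_mul, R.cj_alg]

/-- The trace form `(u, v) ↦ Tr (c h(u, v))`. -/
noncomputable def trForm (m : ℕ) (c : K) : LinearMap.BilinForm F (Fin m → K) :=
  LinearMap.mk₂ F (fun u v => R.π (c * Cfsg.hermForm m K q u v + cj q (c * Cfsg.hermForm m K q u v)))
    (fun u u' v => by
      rw [form_add_left, ← map_add, mul_add, map_add (cj q)]; congr 1; ring)
    (fun a u v => by
      rw [← map_smul, ← algebraMap_smul K a u, form_smul_left, smul_add, ← R.cj_smul,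
        Algebra.smul_def, mul_left_comm])
    (fun u v v' => by
      rw [form_add_right, ← map_add, mul_add, map_add (cj q)]; congr 1; ring)
    (fun a u v => by
      rw [← map_smul, ← algebraMap_smul K a v, form_smul_right, R.cj_alg, smul_add, ← R.cj_smul,
        Algebra.smul_def, mul_left_comm])

theorem trForm_apply (c : K) (u v : Fin m → K) : R.trForm m c u v =
    R.π (c * Cfsg.hermForm m K q u v + cj q (c * Cfsg.hermForm m K q u v)) := rfl

theorem alg_trForm (c : K) (u v : Fin m → K) : algebraMap F K (R.trForm m c u v) =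
    c * Cfsg.hermForm m K q u v + cj q (c * Cfsg.hermForm m K q u v) := R.alg_π _ (cj_trace _)

theorem eq_zero_of_trace {z : K} (h : ∀ c : K, c * z + cj q (c * z) = 0) : z = 0 := by
  by_contra hz
  obtain ⟨x, hx⟩ := exists_trace_eq (F := K) (q := q) (c := 1) (map_one _)
  have := h (x * z⁻¹)
  rw [inv_mul_cancel_right₀ hz, hx] at this
  exact one_ne_zero this

theorem herm_eq_of_trForm {c : K} (hc : c ≠ 0) {u v u' v' : Fin m → K}
    (h : ∀ a : K, R.trForm m c (a • u) v = R.trForm m c (a • u') v') :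
    Cfsg.hermForm m K q u v = Cfsg.hermForm m K q u' v' := by
  refine mul_left_cancel₀ hc (sub_eq_zero.mp (eq_zero_of_trace (q := q) fun a => ?_))
  have := congrArg (algebraMap F K) (h a)
  simp only [alg_trForm, form_smul_left, map_mul] at this
  simp only [map_mul, map_sub]
  linear_combination this

theorem trForm_sep {c : K} (hc : c ≠ 0) (u : Fin m → K) (h : ∀ v, R.trForm m c u v = 0) :
    u = 0 := eq_zero_of_form_eq_zero (q := q) fun v => by
  refine (mul_eq_zero.mp (eq_zero_of_trace (q := q) (z := c * _) fun a => ?_)).resolve_left hc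
  have := congrArg (algebraMap F K) (h (cj q a • v))
  rw [alg_trForm, form_smul_right, cj_cj, map_zero, mul_left_comm] at this
  exact this

theorem trForm_isAlt {c : K} (hc : cj q c = -c) : (R.trForm m c).IsAlt := fun u => by
  rw [trForm_apply, map_mul, hc, cj_form, neg_mul, add_neg_cancel, map_zero]

theorem trForm_nondegenerate {c : K} (hc0 : c ≠ 0) (hc : cj q c = -c) :
    (R.trForm m c).Nondegenerate :=
  (LinearMap.IsRefl.nondegenerate_iff_separatingLeft (R.trForm_isAlt hc).isRefl).mpr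
    (R.trForm_sep hc0)

theorem trForm_mulVec (c : K) {A : Matrix (Fin m) (Fin m) K} (hA : IsIso q A) (u v : Fin m → K) :
    R.trForm m c (A *ᵥ u) (A *ᵥ v) = R.trForm m c u v := by
  rw [trForm_apply, trForm_apply, hA]

include R in
theorem exists_quad (m : ℕ) : ∃ Q : QuadraticForm F (Fin m → K),
    (QuadraticMap.polarBilin Q).Nondegenerate ∧
      ∀ v, algebraMap F K (Q v) = Cfsg.hermForm m K q v v := by
  obtain ⟨c, hc⟩ := exists_trace_eq (F := K) (q := q) (c := 1) (map_one _)
  have h1 : ∀ v, algebraMap F K (LinearMap.BilinMap.toQuadraticMap (R.trForm m c) v) =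
      Cfsg.hermForm m K q v v := fun v => by
    rw [LinearMap.BilinMap.toQuadraticMap_apply, alg_trForm, map_mul, cj_form, ← add_mul, hc,
      one_mul]
  refine ⟨_, (nd_iff _).mpr fun u hu => R.trForm_sep one_ne_zero u fun v => ?_, h1⟩
  rw [← hu v, LinearMap.BilinMap.polar_toQuadraticMap]
  apply (algebraMap F K).injective
  rw [map_add, alg_trForm, alg_trForm, alg_trForm, form_swap v u]
  simp only [map_mul, cj_cj, map_one]
  linear_combination (-(Cfsg.hermForm m K q u v + cj q (Cfsg.hermForm m K q u v))) * hc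

end Retr

omit [Fintype K] [IsSq K q] in
theorem exists_gu_hom_isometry {m : ℕ} {ι : Type} [Fintype ι] [DecidableEq ι]
    {Q : (Fin m → K) → F} (hQ : ∀ v, algebraMap F K (Q v) = Cfsg.hermForm m K q v v)
    (Φ : (ι → F) ≃ₗ[F] (Fin m → K)) {Q' : (ι → F) → F} (hΦ : ∀ x, Q (Φ x) = Q' x) :
    ∃ φ : Cfsg.GU m K q →* Cfsg.isometryGroup F Q', Function.Injective φ := by
  refine ⟨((Units.map (resMat Φ)).comp (Cfsg.GU m K q).subtype).codRestrict _ fun g u _ => ?_,
    fun a b h => Subtype.ext (Units.map_injective (resMat_injective Φ) (congrArg Subtype.val h))⟩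
  apply (algebraMap F K).injective
  change algebraMap F K (Q' (resMat Φ g.1.1 *ᵥ u)) = algebraMap F K (Q' u)
  rw [← hΦ, ← hΦ, resMat_mulVec, hQ, hQ, gu_form]

omit [Fintype K] [IsSq K q] in
theorem card_zero_eq_card_isotropic {m : ℕ} {W : Type*}
    {Q : (Fin m → K) → F} (hQ : ∀ v, algebraMap F K (Q v) = Cfsg.hermForm m K q v v)
    (Φ : W ≃ (Fin m → K)) {Q' : W → F} (hΦ : ∀ x, Q (Φ x) = Q' x) :
    Nat.card {v // Q' v = 0} = Nat.card {v // Cfsg.hermForm m K q v v = 0} :=
  Nat.card_congr (Φ.subtypeEquiv fun v => by rw [← hΦ, ← hQ, map_eq_zero])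

/-- The embedding of the unitary group in the symplectic group. -/
noncomputable def guToSp (R : Retr F K q) {m : ℕ} {d : K}
    (Φ : (Fin m ⊕ Fin m → F) ≃ₗ[F] (Fin m → K))
    (hΦ : ∀ u v, R.trForm m d (Φ u) (Φ v) = sympBilin m F u v) :
    Cfsg.GU m K q →* Matrix.symplecticGroup (Fin m) F :=
  ((resMat Φ).comp ((Units.coeHom _).comp (Cfsg.GU m K q).subtype)).codRestrict _ fun g =>
    (mem_symplecticGroup_iff _).mpr fun u v => by
      change sympBilin m F (resMat Φ g.1.1 *ᵥ u) (resMat Φ g.1.1 *ᵥ v) = _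
      rw [← hΦ, ← hΦ, resMat_mulVec, resMat_mulVec, R.trForm_mulVec d (A := g.1.1) g.2]

theorem guToSp_val (R : Retr F K q) {m : ℕ} {d : K} (Φ : (Fin m ⊕ Fin m → F) ≃ₗ[F] (Fin m → K))
    (hΦ : ∀ u v, R.trForm m d (Φ u) (Φ v) = sympBilin m F u v) (g : Cfsg.GU m K q) :
    (guToSp R Φ hΦ g).1 = resMat Φ g.1.1 := rfl

theorem guToSp_injective (R : Retr F K q) {m : ℕ} {d : K}
    (Φ : (Fin m ⊕ Fin m → F) ≃ₗ[F] (Fin m → K))
    (hΦ : ∀ u v, R.trForm m d (Φ u) (Φ v) = sympBilin m F u v) :
    Function.Injective (guToSp R Φ hΦ) := fun _ _ h =>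
  Subtype.ext (Units.ext (resMat_injective Φ (congrArg Subtype.val h)))

theorem exists_sp_coords [Fintype F] (hF : Fintype.card F = q) (R : Retr F K q) (m : ℕ) :
    ∃ (d : K) (Φ : (Fin m ⊕ Fin m → F) ≃ₗ[F] (Fin m → K)), d ≠ 0 ∧
      ∀ u v, R.trForm m d (Φ u) (Φ v) = sympBilin m F u v := by
  obtain ⟨d, hd0, hd⟩ := exists_trace_zero K q
  obtain ⟨Φ, hΦ⟩ := exists_equiv_alt (R.trForm m d) (sympBilin m F) (R.trForm_nondegenerate hd0 hd)
    (sympBilin_nondegenerate m) (R.trForm_isAlt hd) (sympBilin_isAlt m)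
    (by rw [finrank_res IsSq.card_eq hF]; simp [two_mul])
  exact ⟨d, Φ, hd0, hΦ⟩

theorem range_guToSp (R : Retr F K q) {m : ℕ} {d : K} (hd : d ≠ 0)
    (Φ : (Fin m ⊕ Fin m → F) ≃ₗ[F] (Fin m → K))
    (hΦ : ∀ u v, R.trForm m d (Φ u) (Φ v) = sympBilin m F u v) {ω : K} (hω : ω * cj q ω = 1)
    (hω' : cj q ω ≠ ω) : (guToSp R Φ hΦ).range =
      Subgroup.centralizer {guToSp R Φ hΦ (toGU _ (isIso_smul_one hω))} := by
  ext g
  rw [Subgroup.mem_centralizer_singleton_iff]
  constructor
  · rintro ⟨k, rfl⟩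
    rw [← map_mul, ← map_mul]
    congr 1
    exact Subtype.ext (Units.ext (by simp [toGU_val]))
  · intro hg
    have h1 : ∀ v, Φ (g.1 *ᵥ Φ.symm (ω • v)) = ω • Φ (g.1 *ᵥ Φ.symm v) := fun v => by
      have h2 : g.1 * resMat Φ (ω • 1) = resMat Φ (ω • 1) * g.1 := congrArg Subtype.val hg
      have h3 : Φ.symm (ω • v) = resMat Φ (ω • 1) *ᵥ Φ.symm v :=
        Φ.injective (by rw [resMat_mulVec]; simp [smul_mulVec])
      rw [h3, mulVec_mulVec, h2, ← mulVec_mulVec, resMat_mulVec, smul_mulVec, one_mulVec]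
    let f : (Fin m → K) →ₗ[K] (Fin m → K) :=
      { toFun := fun v => Φ (g.1 *ᵥ Φ.symm v)
        map_add' := fun u v => by rw [map_add, mulVec_add, map_add]
        map_smul' := fun c v => by
          obtain ⟨s, t, hs, ht, rfl⟩ := exists_fixed_comb (q := q) (a := 1) (b := ω)
            (by simpa using hω') c
          rw [← R.alg_π s hs, ← R.alg_π t ht, RingHom.id_apply]
          simp only [add_smul, mul_smul, one_smul, algebraMap_smul, map_add, map_smul, mulVec_add,
            mulVec_smul, h1] }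
    have hf : IsIso q (LinearMap.toMatrix' f) := fun u v => by
      rw [LinearMap.toMatrix'_mulVec, LinearMap.toMatrix'_mulVec]
      refine R.herm_eq_of_trForm hd fun a => ?_
      rw [← map_smul]
      change R.trForm m d (Φ _) (Φ _) = _
      rw [hΦ, (mem_symplecticGroup_iff _).mp g.2, ← hΦ, Φ.apply_symm_apply, Φ.apply_symm_apply]
    refine ⟨toGU _ hf, Subtype.ext (Matrix.toLin'.injective (LinearMap.ext fun v => Φ.injective ?_))⟩
    change Φ (resMat Φ (LinearMap.toMatrix' f) *ᵥ v) = Φ (g.1 *ᵥ v)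
    rw [resMat_mulVec, LinearMap.toMatrix'_mulVec]
    change Φ (g.1 *ᵥ Φ.symm (Φ v)) = _
    rw [Φ.symm_apply_apply]

end H66
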