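import Mathlib
import Cfsg.Agent.Lib.Reg66.Eig
import Cfsg.Agent.S2637

/-!
# Classes of elements of prime order modulo scalars
-/

set_option autoImplicit false

namespace H66

open Polynomial Module H65

theorem card_classes_of_reps {G T : Type*} [Group G] (P : G → Prop) (y : T → G)
    (h1 : ∀ t, P (y t)) (h2 : ∀ s t, IsConj (y s) (y t) → s = t)
    (h3 : ∀ g, P g → ∃ t, IsConj (y t) g) :
    Nat.card {C : ConjClasses G // ∃ g, ConjClasses.mk g = C ∧ P g} = Nat.card T := by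
  refine (Nat.card_congr (Equiv.ofBijective
    (fun t => ⟨ConjClasses.mk (y t), _, rfl, h1 t⟩) ⟨fun s t h => ?_, ?_⟩)).symm
  · exact h2 s t (ConjClasses.mk_eq_mk_iff_isConj.mp (congrArg Subtype.val h))
  · rintro ⟨C, g, rfl, hg⟩
    obtain ⟨t, ht⟩ := h3 g hg
    exact ⟨t, Subtype.ext (ConjClasses.mk_eq_mk_iff_isConj.mpr ht)⟩

theorem isConj_quot_center_iff {G : Type*} [Group G] (g h : G) :
    IsConj (g : G ⧸ Subgroup.center G) (h : G ⧸ Subgroup.center G) ↔
      ∃ z ∈ Subgroup.center G, IsConj g (z * h) := by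
  constructor
  · intro H
    obtain ⟨c, hc⟩ := isConj_iff.mp H
    obtain ⟨c, rfl⟩ := QuotientGroup.mk_surjective c
    have h1 : h⁻¹ * (c * g * c⁻¹) ∈ Subgroup.center G := QuotientGroup.eq.mp hc.symm
    refine ⟨_, h1, isConj_iff.mpr ⟨c, ?_⟩⟩
    rw [← Subgroup.mem_center_iff.mp h1, mul_inv_cancel_left]
  · rintro ⟨z, hz, H⟩
    have := (QuotientGroup.mk' (Subgroup.center G)).map_isConj H
    rwa [map_mul, QuotientGroup.mk'_apply, QuotientGroup.mk'_apply,
      (QuotientGroup.eq_one_iff z).mpr hz, one_mul] at this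

variable (r : ℕ) [Fact r.Prime]

/-- Tuples indexed by `ZMod r` with sum `n`. -/
def Rot (n : ℕ) : Type := {m : ZMod r → ℕ // ∑ a, m a = n}

instance rotAction (n : ℕ) : AddAction (ZMod r) (Rot r n) where
  vadd b m := ⟨fun a => m.1 (a - b), (Equiv.sum_comp (Equiv.subRight b) m.1).trans m.2⟩
  zero_vadd m := Subtype.ext (funext fun a => congrArg m.1 (sub_zero a))
  add_vadd b c m := Subtype.ext (funext fun a => congrArg m.1 (sub_add_eq_sub_sub a b c))

theorem rot_vadd {n : ℕ} (b : ZMod r) (m : Rot r n) (a : ZMod r) : (b +ᵥ m).1 a = m.1 (a - b) :=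
  rfl

theorem card_rot (n : ℕ) : Nat.card (Rot r n) = (n + r - 1).choose (r - 1) := by
  have hr := (Fact.out : r.Prime).pos
  have := card_invariant (1 : (ZMod r)ˣ) orderOf_one (mul_one _) n
  rw [Nat.div_one, ← Nat.add_sub_assoc hr] at this
  rw [← this]
  exact Nat.card_congr (Equiv.subtypeEquivRight fun m => by simp)

theorem card_rot_fixed (n : ℕ) {b : ZMod r} (hb : b ≠ 0) :
    Nat.card (AddAction.fixedBy (Rot r n) b) = if r ∣ n then 1 else 0 := by
  have hr := (Fact.out : r.Prime).pos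
  have h1 : ∀ m : AddAction.fixedBy (Rot r n) b, (∀ a, m.1.1 a = m.1.1 0) ∧ r * m.1.1 0 = n :=
    fun m => by
      have h2 : ∀ (k : ℕ) a, m.1.1 (a - k * b) = m.1.1 a := fun k => by
        induction k with
        | zero => simp
        | succ k ih =>
          intro a
          rw [← ih a, ← congrFun (congrArg Subtype.val m.2) (a - k * b), rot_vadd,
            Nat.cast_succ, add_mul, one_mul, sub_add_eq_sub_sub]
      have h3 : ∀ a, m.1.1 a = m.1.1 0 := fun a => by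
        rw [← h2 (a / b).val a, ZMod.natCast_zmod_val, div_mul_cancel₀ _ hb, sub_self]
      refine ⟨h3, Eq.trans ?_ m.1.2⟩
      rw [Finset.sum_congr rfl fun a _ => h3 a]
      simp
  split_ifs with h
  · obtain ⟨k, rfl⟩ := h
    rw [Nat.card_eq_one_iff_exists]
    refine ⟨⟨⟨fun _ => k, by simp⟩, rfl⟩, fun m => Subtype.ext (Subtype.ext (funext fun a => ?_))⟩
    rw [(h1 m).1]
    exact Nat.eq_of_mul_eq_mul_left hr (h1 m).2
  · have : IsEmpty (AddAction.fixedBy (Rot r n) b) := ⟨fun m => h ⟨_, (h1 m).2.symm⟩⟩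
    exact Nat.card_of_isEmpty

theorem card_rot_orbits (n : ℕ) :
    Nat.card (Quotient (AddAction.orbitRel (ZMod r) (Rot r n))) * r =
      (n + r - 1).choose (r - 1) + (r - 1) * if r ∣ n then 1 else 0 := by
  classical
  have : Finite (Rot r n) := Nat.finite_of_card_ne_zero (by
    rw [card_rot]; exact (Nat.choose_pos (by omega)).ne')
  let _ : Fintype (Rot r n) := Fintype.ofFinite _
  have h := AddAction.sum_card_fixedBy_eq_card_orbits_mul_card_addGroup (ZMod r) (Rot r n)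
  simp only [← Nat.card_eq_fintype_card, Nat.card_zmod] at h
  rw [← h, ← Finset.add_sum_erase _ _ (Finset.mem_univ 0), Finset.sum_congr rfl
    fun b hb => card_rot_fixed r n (Finset.ne_of_mem_erase hb), ← card_rot]
  simp

theorem proj_arith {n O : ℕ} (hn : 1 ≤ n)
    (h : O * r = (n + r - 1).choose (r - 1) + (r - 1) * if r ∣ n then 1 else 0) :
    O + (r - 1) * (if r ∣ n then 1 else 0) - 1 =
      ((n + r - 1).choose (r - 1) - r - (if r ∣ n then 1 else 0)) / r +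
        r * (if r ∣ n then 1 else 0) := by
  have hr := (Fact.out : r.Prime).two_le
  have h1 : r ≤ (n + r - 1).choose (r - 1) := by
    have := Nat.choose_le_choose (r - 1) (show r - 1 + 1 ≤ n + r - 1 by omega)
    rwa [Nat.choose_succ_self_right, Nat.sub_add_cancel (by omega)] at this
  generalize (n + r - 1).choose (r - 1) = c at *
  split_ifs at *
  · obtain ⟨k, rfl⟩ : ∃ k, O = k + 2 := ⟨O - 2, by
      rcases O with _ | _ | O <;> omega⟩
    rw [show c - r - 1 = k * r by rw [add_mul] at h; omega, Nat.mul_div_cancel _ (by omega)]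
    omega
  · obtain ⟨k, rfl⟩ : ∃ k, O = k + 1 := ⟨O - 1, by rcases O with _ | O <;> omega⟩
    rw [show c - r - 0 = k * r by rw [add_mul] at h; omega, Nat.mul_div_cancel _ (by omega)]
    omega

variable {r} {K : Type*} [Field K] {χ : AddChar (ZMod r) K} {ι : Type*} [Fintype ι]
  [DecidableEq ι]

theorem charpoly_smul_fm (hr : (r : K) ≠ 0) {A : Matrix ι ι K} (hA : A ^ r = 1) {m : ZMod r → ℕ}
    (h : A.charpoly = fm χ m) (b : ZMod r) :
    (χ b • A).charpoly = fm χ fun a => m (a - b) := by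
  classical
  let D : Matrix (Σ a, Fin (m a)) (Σ a, Fin (m a)) K := Matrix.diagonal fun j => χ j.1
  have hs : Similar (Matrix.toLin' A) (Matrix.toLin' D) := by
    refine similar_of_charpoly_eq_of_squarefree (squarefree_X_pow_sub_one hr)
      (squarefree_X_pow_sub_one hr) (aeval_X_pow_sub_one.mpr ?_) (aeval_X_pow_sub_one.mpr ?_) ?_
    · rw [← toLin'_pow', toLin'_eq_one_iff, hA]
    · rw [← toLin'_pow', toLin'_eq_one_iff, Matrix.diagonal_pow, ← Matrix.diagonal_one]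
      congr 1; funext j; exact chi_pow_r _
    · rw [Matrix.charpoly_toLin', Matrix.charpoly_toLin', h]
      simp [D, fm, Matrix.charpoly_diagonal, Fintype.prod_sigma]
  have h2 := (hs.aeval (χ b • X)).charpoly_eq
  rw [map_smul, map_smul, aeval_X, aeval_X, ← map_smul, ← map_smul, Matrix.charpoly_toLin',
    Matrix.charpoly_toLin'] at h2
  rw [h2, fm, ← Equiv.prod_comp (Equiv.addLeft b), ← Matrix.diagonal_smul,
    Matrix.charpoly_diagonal]
  simp [Fintype.prod_sigma, AddChar.map_add_eq_mul]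

theorem exists_matrix_pow_eq_smul (hr : r ∣ Fintype.card ι) (μ : K) :
    ∃ A : Matrix ι ι K, A ^ r = μ • 1 := by
  have h0 := (Fact.out : r.Prime).ne_zero
  have h1 : (X ^ r - C μ : K[X]) ≠ 0 := (monic_X_pow_sub_C _ h0).ne_zero
  have := finiteDimensional_model (fun _ : Σ _ : Unit, Fin (Fintype.card ι / r) =>
    (X ^ r - C μ : K[X])) fun _ => h1
  obtain ⟨A, hA⟩ := exists_matrix_similar (ssModel (fun _ : Unit => (X ^ r - C μ : K[X]))
    fun _ => Fintype.card ι / r) (n := ι) (by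
      rw [finrank_ssModel _ fun _ => h1]
      simp [Nat.div_mul_cancel hr])
  have h6 := (hA.aeval_eq_zero_iff _).mp (aeval_ssModel_eq_zero _ (fun _ => dvd_rfl) _)
  rw [aeval_toLin', LinearEquiv.map_eq_zero_iff] at h6
  exact ⟨A, by simpa [sub_eq_zero, Algebra.algebraMap_eq_smul_one] using h6⟩

theorem isConj_of_pow_eq_smul {μ : K} (hμ : ∀ b : K, b ^ r ≠ μ) {A B : Matrix ι ι K}
    (hA : A ^ r = μ • 1) (hB : B ^ r = μ • 1) : IsConj A B :=
  Cfsg.Agent.S2637.isConj_of_aeval_irreducible (X_pow_sub_C_irreducible_of_prime Fact.out hμ)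
    (monic_X_pow_sub_C _ (Fact.out : r.Prime).ne_zero)
    (by simpa [sub_eq_zero, Algebra.algebraMap_eq_smul_one] using hA)
    (by simpa [sub_eq_zero, Algebra.algebraMap_eq_smul_one] using hB)

theorem card_classes_proj_aux {G : Type*} [Group G] [Nonempty ι] (hχ : Function.Injective χ)
    (hr : (r : K) ≠ 0) (ρ : G →* Matrix ι ι K) (hinj : Function.Injective ρ)
    (hρ : ∀ g h, IsConj (ρ g) (ρ h) → IsConj g h) {z : G} {ζ : K} (hζ : ζ ≠ 0)
    (hz : ρ z = ζ • 1) (hZ : ∀ g, g ∈ Subgroup.center G ↔ ∃ i : ℕ, ρ g = ζ ^ i • 1)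
    (hχζ : ∀ b, ∃ i : ℕ, χ b = ζ ^ i) (hirr : ∀ (j : ℕ) (b : K), b ^ r = ζ ^ j → r ∣ j)
    (hex1 : ∀ m : ZMod r → ℕ, ∑ a, m a = Fintype.card ι →
      ∃ g, g ^ r = 1 ∧ (ρ g).charpoly = fm χ m)
    (hex2 : r ∣ Fintype.card ι → ∀ j : ℕ, ¬ r ∣ j → ∃ g, ρ g ^ r = ζ ^ j • 1) :
    Nat.card {C : ConjClasses (G ⧸ Subgroup.center G) // ∃ g, ConjClasses.mk g = C ∧ g ^ r = 1} =
      Nat.card (Quotient (AddAction.orbitRel (ZMod r) (Rot r (Fintype.card ι))) ⊕
        {j : Fin r // j.1 ≠ 0 ∧ r ∣ Fintype.card ι}) := by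
  have hr0 := (Fact.out : r.Prime).pos
  have hsm : ∀ {a b : K}, a • (1 : Matrix ι ι K) = b • 1 → a = b := fun h => by
    simpa using congrFun (congrFun h (Classical.arbitrary ι)) (Classical.arbitrary ι)
  have hzi : ∀ i : ℕ, ρ (z ^ i) = ζ ^ i • 1 := fun i => by rw [map_pow, hz, _root_.smul_pow, one_pow]
  have hpow : ∀ g, g ^ r = 1 ↔ ρ g ^ r = ζ ^ 0 • 1 := fun g => by
    rw [pow_zero, one_smul, ← map_pow, ← ρ.map_one, hinj.eq_iff]
  choose y₁ hy₁ using fun o : Quotient (AddAction.orbitRel (ZMod r) (Rot r (Fintype.card ι))) =>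
    hex1 o.out.1 o.out.2
  choose y₂ hy₂ using fun j : {j : Fin r // j.1 ≠ 0 ∧ r ∣ Fintype.card ι} =>
    hex2 j.2.2 j.1 (Nat.not_dvd_of_pos_of_lt (Nat.pos_of_ne_zero j.2.1) j.1.2)
  have hc : ∀ {g h c : G} {i j k : ℕ}, ρ g ^ r = ζ ^ i • 1 → ρ h ^ r = ζ ^ j • 1 → i < r → j < r →
      ρ c = ζ ^ k • 1 → IsConj g (c * h) → i = j ∧ (ζ ^ k) ^ r = 1 := by
    intro g h c i j k hg hh hi hj hk H
    have h1 := (ρ.map_isConj H).pow r
    rw [hg, map_mul, hk, smul_mul_assoc, one_mul, _root_.smul_pow, hh, smul_smul] at h1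
    obtain ⟨u, hu⟩ := h1
    have h2 : ζ ^ i = (ζ ^ k) ^ r * ζ ^ j := hsm (u.isUnit.mul_left_cancel (by
      rw [hu.eq]; simp))
    have h3 := hirr (i + (r - j)) (ζ ^ (k + 1)) (by
      rw [pow_add ζ i, h2, mul_assoc, ← pow_add, Nat.add_sub_cancel' hj.le, pow_succ, mul_pow])
    have h4 : i = j := by
      obtain ⟨t, ht⟩ := h3
      rcases t with _ | _ | t
      · omega
      · omega
      · rw [mul_add, mul_add] at ht; omega
    subst h4
    exact ⟨rfl, (mul_eq_right₀ (pow_ne_zero _ hζ)).mp h2.symm⟩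
  have hfm : ∀ {g h : G}, g ^ r = 1 → h ^ r = 1 → (ρ g).charpoly = (ρ h).charpoly → IsConj g h :=
    fun hg hh H => hρ _ _ (isConj_of_charpoly_eq_of_squarefree (squarefree_X_pow_sub_one hr)
      (squarefree_X_pow_sub_one hr) (aeval_X_pow_sub_one.mpr (by rw [← map_pow, hg, map_one]))
      (aeval_X_pow_sub_one.mpr (by rw [← map_pow, hh, map_one])) H)
  refine card_classes_of_reps _ (fun t => (Sum.elim y₁ y₂ t : G)) ?_ ?_ ?_
  · rintro (o | j)
    · rw [← QuotientGroup.mk_pow, Sum.elim_inl, (hy₁ o).1, QuotientGroup.mk_one]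
    · rw [← QuotientGroup.mk_pow, QuotientGroup.eq_one_iff, hZ]
      exact ⟨_, by rw [map_pow]; exact hy₂ j⟩
  · intro s t H
    obtain ⟨c, hcZ, H⟩ := (isConj_quot_center_iff _ _).mp H
    obtain ⟨k, hk⟩ := (hZ c).mp hcZ
    rcases s with o | j <;> rcases t with o' | j'
    · obtain ⟨b, hb⟩ := exists_chi_eq hχ
        (hc ((hpow _).mp (hy₁ o).1) ((hpow _).mp (hy₁ o').1) hr0 hr0 hk H).2
      have h1 := ((isConj_iff_similar _ _).mp (ρ.map_isConj H)).charpoly_eq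
      rw [Matrix.charpoly_toLin', Matrix.charpoly_toLin', map_mul, hk, smul_mul_assoc, one_mul,
        ← hb, Sum.elim_inl, Sum.elim_inl, (hy₁ o).2, charpoly_smul_fm hr
          (by rw [← map_pow, (hy₁ o').1, map_one]) (hy₁ o').2] at h1
      rw [← o.out_eq, ← o'.out_eq]
      exact congrArg _ (Quotient.sound ⟨b, Subtype.ext (fm_injective hχ h1).symm⟩)
    · exact absurd (hc ((hpow _).mp (hy₁ o).1) (hy₂ j') hr0 j'.1.2 hk H).1.symm j'.2.1
    · exact absurd (hc (hy₂ j) ((hpow _).mp (hy₁ o').1) j.1.2 hr0 hk H).1 j.2.1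
    · exact congrArg _ (Subtype.ext (Fin.ext (hc (hy₂ j) (hy₂ j') j.1.2 j'.1.2 hk H).1))
  · intro g hg
    obtain ⟨g, rfl⟩ := QuotientGroup.mk_surjective g
    rw [← QuotientGroup.mk_pow, QuotientGroup.eq_one_iff, hZ] at hg
    obtain ⟨i, hi⟩ := hg
    have h1 : (z ^ (i / r))⁻¹ ∈ Subgroup.center G := inv_mem ((hZ _).mpr ⟨_, hzi _⟩)
    have h2 : ρ ((z ^ (i / r))⁻¹ * g) ^ r = ζ ^ (i % r) • 1 := by
      have h3 : z ^ (i / r) * ((z ^ (i / r))⁻¹ * g) = g := mul_inv_cancel_left _ _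
      rw [← h3, map_pow, map_mul, hzi, smul_mul_assoc, one_mul, _root_.smul_pow,
        show ζ ^ i = (ζ ^ (i / r)) ^ r * ζ ^ (i % r) by
          rw [← pow_mul, ← pow_add, Nat.div_add_mod'], mul_smul] at hi
      exact smul_right_injective _ (pow_ne_zero r (pow_ne_zero (i / r) hζ)) hi
    by_cases h0 : i % r = 0
    · rw [h0, ← hpow] at h2
      obtain ⟨m, hm⟩ := exists_fm (F := K) hχ hr (x := Matrix.toLin' (ρ ((z ^ (i / r))⁻¹ * g)))
        (by rw [← toLin'_pow', ← map_pow, h2, map_one, Matrix.toLin'_one]; rfl)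
      have h3 := sum_eq_finrank hm
      rw [Matrix.charpoly_toLin', Algebra.algebraMap_self, Polynomial.map_id] at hm
      rw [finrank_fintype_fun_eq_card] at h3
      obtain ⟨b, hb⟩ := Quotient.exact (Quotient.out_eq
        (s := AddAction.orbitRel (ZMod r) (Rot r (Fintype.card ι))) ⟦⟨m, h3⟩⟧)
      obtain ⟨k, hk⟩ := hχζ b
      have h4 : ρ (z ^ k * ((z ^ (i / r))⁻¹ * g)) = χ b • ρ ((z ^ (i / r))⁻¹ * g) := by
        rw [map_mul, hzi, hk, smul_mul_assoc, one_mul]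
      have h5 : ρ ((z ^ (i / r))⁻¹ * g) ^ r = 1 := by rw [← map_pow, h2, map_one]
      refine ⟨.inl ⟦⟨m, h3⟩⟧, (isConj_quot_center_iff _ _).mpr ⟨z ^ k * (z ^ (i / r))⁻¹,
        mul_mem ((hZ _).mpr ⟨_, hzi _⟩) h1, hfm (hy₁ _).1 ?_ ?_⟩⟩
      · rw [mul_assoc, hpow, h4, _root_.smul_pow, chi_pow_r, h5, pow_zero]
      · rw [mul_assoc, h4, charpoly_smul_fm hr h5 hm, Sum.elim_inl, (hy₁ _).2, ← hb]
        rfl
    · have h3 : ¬ r ∣ i % r := Nat.not_dvd_of_pos_of_lt (Nat.pos_of_ne_zero h0) (Nat.mod_lt _ hr0)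
      have h4 := congrArg Matrix.det h2
      rw [Matrix.det_pow, Matrix.det_smul, Matrix.det_one, mul_one, ← pow_mul] at h4
      refine ⟨.inr ⟨⟨_, Nat.mod_lt _ hr0⟩, h0, ((Nat.Prime.dvd_mul Fact.out).mp
        (hirr _ _ h4)).resolve_left h3⟩, (isConj_quot_center_iff _ _).mpr ⟨_, h1, hρ _ _ ?_⟩⟩
      exact isConj_of_pow_eq_smul (fun b hb => h3 (hirr _ _ hb)) (hy₂ _) h2

theorem card_classes_proj {G : Type*} [Group G] [Finite G] [Nonempty ι]
    (ρ : G →* Matrix ι ι K) (hinj : Function.Injective ρ)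
    (hρ : ∀ g h, IsConj (ρ g) (ρ h) → IsConj g h) {z : G} {ζ : K} {N : ℕ} (hN : 0 < N)
    (hζ : IsPrimitiveRoot ζ N) (hrN : r ∣ N)
    (hz : ρ z = ζ • 1) (hZ : ∀ g, g ∈ Subgroup.center G ↔ ∃ i : ℕ, ρ g = ζ ^ i • 1)
    (hirr : ∀ (j : ℕ) (b : K), b ^ r = ζ ^ j → r ∣ j)
    (hex1 : ∀ χ : AddChar (ZMod r) K, Function.Injective χ → (r : K) ≠ 0 →
      ∀ m : ZMod r → ℕ, ∑ a, m a = Fintype.card ι → ∃ g, g ^ r = 1 ∧ (ρ g).charpoly = fm χ m)
    (hex2 : r ∣ Fintype.card ι → ∀ j : ℕ, ¬ r ∣ j → ∃ g, ρ g ^ r = ζ ^ j • 1) :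
    Nat.card {C : ConjClasses (G ⧸ Subgroup.center G) //
      ∃ g, ConjClasses.mk g = C ∧ orderOf g = r} =
      ((Fintype.card ι + r - 1).choose (r - 1) - r - (if r ∣ Fintype.card ι then 1 else 0)) / r +
        r * (if r ∣ Fintype.card ι then 1 else 0) := by
  obtain ⟨s, hs⟩ := hrN
  have hω := hζ.pow hN (hs.trans (mul_comm _ _))
  have hχ : Function.Injective (AddChar.zmodChar r hω.pow_eq_one) := fun a b h =>
    ZMod.val_injective r (hω.pow_inj (ZMod.val_lt a) (ZMod.val_lt b) h)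
  have hr : (r : K) ≠ 0 := hω.neZero'.out
  have : Finite (Rot r (Fintype.card ι)) := Nat.finite_of_card_ne_zero (by
    rw [card_rot]; exact (Nat.choose_pos (by omega)).ne')
  rw [card_classes_orderOf_prime Fact.out, card_classes_proj_aux hχ hr ρ hinj hρ
    (hζ.ne_zero hN.ne') hz hZ (fun b => ⟨_, (pow_mul _ _ _).symm⟩) hirr (hex1 _ hχ hr) hex2,
    Nat.card_sum, ← proj_arith r Fintype.card_pos (card_rot_orbits r _)]
  congr 2
  split_ifs with h
  · obtain ⟨k, rfl⟩ : ∃ k, r = k + 1 := ⟨r - 1, by have := (Fact.out : r.Prime).pos; omega⟩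
    simp [h]
  · simp [h]

theorem exists_primitiveRoot_card (K : Type*) [Field K] [Fintype K] :
    ∃ ζ : K, IsPrimitiveRoot ζ (Fintype.card K - 1) := by
  obtain ⟨g, hg⟩ := IsCyclic.exists_ofOrder_eq_natCard (α := Kˣ)
  rw [Nat.card_units, Nat.card_eq_fintype_card] at hg
  exact ⟨g, IsPrimitiveRoot.coe_units_iff.mpr (hg ▸ IsPrimitiveRoot.orderOf g)⟩

theorem dvd_of_pow_eq_pow [Fintype K] {ζ : K} {N t : ℕ} (hζ : IsPrimitiveRoot ζ N) (hN : r ∣ N)
    (ht : Fintype.card K - 1 = N * t) (hrt : ¬ r ∣ t) (j : ℕ) (b : K) (h : b ^ r = ζ ^ j) :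
    r ∣ j := by
  obtain ⟨s, rfl⟩ := hN
  have h0 : r * s ≠ 0 := left_ne_zero_of_mul (ht ▸ (Nat.sub_pos_of_lt Fintype.one_lt_card).ne')
  have hb : b ≠ 0 := by
    rintro rfl
    rw [zero_pow (left_ne_zero_of_mul h0)] at h
    exact pow_ne_zero j (hζ.ne_zero h0) h.symm
  have h1 := FiniteField.pow_card_sub_one_eq_one b hb
  rw [ht, mul_assoc, pow_mul, h, ← pow_mul, hζ.pow_eq_one_iff_dvd,
    show j * (s * t) = j * t * s by ring] at h1
  exact ((Nat.Prime.dvd_mul Fact.out).mp (Nat.dvd_of_mul_dvd_mul_right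
    (Nat.pos_of_ne_zero (right_ne_zero_of_mul h0)) h1)).resolve_right hrt

end H66
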