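import Mathlib
import Cfsg.Agent.Lib.Reg66.Basic
import Cfsg.Agent.Lib.StarAlg.SpConj

/-!
# Regular unipotent isometries of alternating forms in odd characteristic
-/

set_option autoImplicit false

namespace H66

open Polynomial Module H65

/-- Cayley transform count of the unitary elements of a local ring with involution. -/
theorem card_unitary_local {R : Type*} [CommRing R] [Nontrivial R] (τ : R →+* R)
    (h2 : IsUnit (2 : R))
    (hloc : ∀ c, c * τ c = 1 → IsNilpotent (c - 1) ∨ IsNilpotent (c + 1))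
    (hskew : ∀ s, τ s = -s → IsNilpotent s) :
    Nat.card {c : R // c * τ c = 1} = 2 * Nat.card {s : R // τ s = -s} := by
  have hu : ∀ s, τ s = -s → IsUnit (1 - s) ∧ IsUnit (1 + s) := fun s hs =>
    ⟨(hskew s hs).isUnit_one_sub, (hskew s hs).isUnit_one_add⟩
  have hτi : ∀ s, τ s = -s → τ (Ring.inverse (1 - s)) = Ring.inverse (1 + s) := fun s hs => by
    have h1 := congrArg τ (Ring.mul_inverse_cancel _ (hu s hs).1)
    rw [map_mul, map_sub, map_one, hs, sub_neg_eq_add] at h1
    have h3 := Ring.mul_inverse_cancel _ (hu s hs).2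
    linear_combination (Ring.inverse (1 + s)) * h1 - τ (Ring.inverse (1 - s)) * h3
  let ε : Bool → R := fun b => if b then 1 else -1
  have hε : ∀ b, ε b * ε b = 1 := by rintro (_ | _) <;> simp [ε]
  have hτε : ∀ b, τ (ε b) = ε b := by rintro (_ | _) <;> simp [ε]
  rw [show 2 = Nat.card Bool by simp, ← Nat.card_prod]
  symm
  refine Nat.card_congr (Equiv.ofBijective
    (fun x => ⟨ε x.1 * (1 + x.2.1) * Ring.inverse (1 - x.2.1), ?_⟩) ⟨?_, ?_⟩)
  · obtain ⟨b, s, hs⟩ := x
    have h1 := Ring.mul_inverse_cancel _ (hu s hs).1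
    have h3 := Ring.mul_inverse_cancel _ (hu s hs).2
    simp only [map_mul, map_add, map_one, hτε, hτi s hs, hs]
    linear_combination ((1 + s) * Ring.inverse (1 + s) * ((1 - s) * Ring.inverse (1 - s))) * hε b +
      ((1 + s) * Ring.inverse (1 + s)) * h1 + h3
  · rintro ⟨b, s, hs⟩ ⟨b', s', hs'⟩ h
    have h : ε b * (1 + s) * Ring.inverse (1 - s) = ε b' * (1 + s') * Ring.inverse (1 - s') :=
      congrArg Subtype.val h
    have h1 := Ring.mul_inverse_cancel _ (hu s hs).1
    have h1' := Ring.mul_inverse_cancel _ (hu s' hs').1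
    have h4 : ε b * (1 + s) * (1 - s') = ε b' * (1 + s') * (1 - s) := by
      linear_combination ((1 - s) * (1 - s')) * h - ε b * (1 + s) * (1 - s') * h1 +
        ε b' * (1 + s') * (1 - s) * h1'
    have hn : IsNilpotent (2 * (s * s')) :=
      (Commute.all _ _).isNilpotent_mul_left ((Commute.all _ _).isNilpotent_mul_right (hskew s hs))
    have hb : b = b' := by
      by_contra hb
      apply hn.not_isUnit
      have : 2 * (s * s') = 2 := by
        rcases b with _ | _ <;> rcases b' with _ | _ <;> simp only [ε] at h4 <;>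
          first | exact absurd rfl hb | (simp at h4; linear_combination h4)
                | (simp at h4; linear_combination -h4)
      rwa [this]
    subst hb
    refine Prod.ext rfl (Subtype.ext (h2.mul_left_cancel ?_))
    change 2 * s = 2 * s'
    linear_combination ε b * h4 - 2 * (s - s') * hε b
  · rintro ⟨c, hc⟩
    obtain ⟨b, hb⟩ : ∃ b, IsNilpotent (ε b * c - 1) := by
      rcases hloc c hc with h | h
      · exact ⟨true, by simpa [ε] using h⟩
      · exact ⟨false, by
          have := h.neg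
          rw [neg_add] at this
          simpa [ε, sub_eq_add_neg] using this⟩
    have h3 : IsUnit (ε b * c + 1) := by
      have := hb.isUnit_add_left_of_commute h2 (Commute.all _ _)
      convert this using 1
      ring
    have h4 := Ring.mul_inverse_cancel _ h3
    have h5 := congrArg τ h4
    rw [map_mul, map_add, map_mul, hτε, map_one] at h5
    set w := Ring.inverse (ε b * c + 1)
    have hs : τ ((ε b * c - 1) * w) = -((ε b * c - 1) * w) := by
      rw [map_mul, map_sub, map_mul, hτε, map_one]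
      apply h3.mul_left_cancel
      apply (h3.map τ).mul_left_cancel
      rw [map_add, map_mul, hτε, map_one]
      linear_combination (ε b * c + 1) * (ε b * τ c - 1) * h5 + (ε b * τ c + 1) * (ε b * c - 1) * h4
        + 2 * (c * τ c) * hε b + 2 * hc
    refine ⟨(b, ⟨_, hs⟩), Subtype.ext ?_⟩
    have h6 := Ring.mul_inverse_cancel _ (hu _ hs).1
    change ε b * (1 + (ε b * c - 1) * w) * Ring.inverse (1 - (ε b * c - 1) * w) = c
    set z := Ring.inverse (1 - (ε b * c - 1) * w)
    have h7 : ε b * (1 + (ε b * c - 1) * w) = c * (1 - (ε b * c - 1) * w) := by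
      apply h3.mul_left_cancel
      linear_combination (ε b * c - 1) * (ε b + c) * h4 + 2 * c * hε b
    rw [h7, mul_assoc, h6, mul_one]

variable {F V : Type*} [Field F] [AddCommGroup V] [Module F V]

/-- The involution `X ↦ -X` of `F[X]/(X^k)`. -/
noncomputable def negRoot (F : Type*) [Field F] (k : ℕ) :
    AdjoinRoot ((X : F[X]) ^ k) →ₐ[F] AdjoinRoot ((X : F[X]) ^ k) :=
  Ideal.Quotient.liftₐ (Ideal.span {(X : F[X]) ^ k}) (aeval (-AdjoinRoot.root (X ^ k)))
    fun a ha => by
      obtain ⟨c, rfl⟩ := Ideal.mem_span_singleton.mp ha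
      rw [map_mul, map_pow, aeval_X, neg_pow, root_X_pow_pow, mul_zero, zero_mul]

theorem negRoot_mk (k : ℕ) (p : F[X]) :
    negRoot F k (AdjoinRoot.mk _ p) = aeval (-AdjoinRoot.root (X ^ k)) p := rfl

theorem negRoot_root (k : ℕ) : negRoot F k (AdjoinRoot.root _) = -AdjoinRoot.root _ := by
  rw [← AdjoinRoot.mk_X, negRoot_mk, aeval_X, AdjoinRoot.mk_X]

theorem exists_scalar_adjoinRoot_X_pow {k : ℕ} (c : AdjoinRoot ((X : F[X]) ^ k)) :
    ∃ a : F, IsNilpotent (c - a • 1) := by
  obtain ⟨p, rfl⟩ := AdjoinRoot.mk_surjective c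
  refine ⟨p.coeff 0, ?_⟩
  rw [← AdjoinRoot.aeval_eq, aeval_eq_scalar_add, add_sub_cancel_left]
  exact (Commute.all _ _).isNilpotent_mul_right ⟨k, root_X_pow_pow k⟩

theorem card_skew_negRoot [Fintype F] (h2 : (2 : F) ≠ 0) (m : ℕ) :
    Nat.card {s : AdjoinRoot ((X : F[X]) ^ (2 * m)) // negRoot F (2 * m) s = -s} =
      Fintype.card F ^ m := by
  let b := xPowBasis F (2 * m)
  have hb : ∀ i, negRoot F (2 * m) (b i) = (-1 : F) ^ (i : ℕ) • b i := fun i => by
    simp only [b, xPowBasis_apply, map_pow, negRoot_root]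
    rw [neg_pow, Algebra.smul_def, map_pow, map_neg, map_one]
  have hr : ∀ s i, b.repr (negRoot F (2 * m) s) i = (-1 : F) ^ (i : ℕ) * b.repr s i := by
    intro s i
    conv_lhs => rw [← b.sum_repr s]
    simp only [map_sum, map_smul, hb, Basis.repr_self, Finsupp.finsetSum_apply,
      Finsupp.smul_apply, Finsupp.single_apply, smul_eq_mul]
    rw [Finset.sum_eq_single i] <;> simp +contextual [mul_comm]
  have hiff : ∀ s, negRoot F (2 * m) s = -s ↔ ∀ i : Fin (2 * m), Even (i : ℕ) → b.repr s i = 0 := by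
    intro s
    rw [b.ext_elem_iff]
    refine forall_congr' fun i => ?_
    rw [hr, map_neg, Finsupp.neg_apply]
    rcases Nat.even_or_odd (i : ℕ) with h | h
    · rw [h.neg_one_pow, one_mul, eq_neg_iff_add_eq_zero, ← two_mul]
      simp [h, h2]
    · simp [h.neg_one_pow, Nat.not_even_iff_odd.mpr h]
  rw [show Fintype.card F ^ m = Nat.card (Fin m → F) by simp]
  refine Nat.card_congr
    { toFun := fun s i => b.repr s.1 ⟨2 * i + 1, by omega⟩
      invFun := fun c => ⟨b.equivFun.symm fun i => if Even (i : ℕ) then 0 else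
        c ⟨i / 2, by omega⟩, (hiff _).mpr fun i hi => by
          rw [← b.equivFun_apply, LinearEquiv.apply_symm_apply, if_pos hi]⟩
      left_inv := fun s => Subtype.ext (b.ext_elem fun i => ?_)
      right_inv := fun c => funext fun i => ?_ }
  · rw [← b.equivFun_apply, LinearEquiv.apply_symm_apply]
    split_ifs with h
    · exact ((hiff _).mp s.2 i h).symm
    · rw [Nat.not_even_iff_odd, Nat.odd_iff] at h
      exact congrArg (b.repr s.1) (Fin.ext (show 2 * (i.val / 2) + 1 = i.val by omega))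
  · simp only
    rw [← b.equivFun_apply, LinearEquiv.apply_symm_apply, if_neg (by simp)]
    congr 1
    exact Fin.ext (by simp; omega)

theorem card_unitary_negRoot [Fintype F] (h2 : (2 : F) ≠ 0) {m : ℕ} (hm : 1 ≤ m) :
    Nat.card {c : AdjoinRoot ((X : F[X]) ^ (2 * m)) // c * negRoot F (2 * m) c = 1} =
      2 * Fintype.card F ^ m := by
  have : Nontrivial (AdjoinRoot ((X : F[X]) ^ (2 * m))) :=
    Module.nontrivial_of_finrank_pos (R := F) (by rw [finrank_adjoinRoot_X_pow]; omega)
  rw [← card_skew_negRoot h2]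
  refine card_unitary_local (negRoot F (2 * m)).toRingHom
    (map_ofNat (algebraMap F (AdjoinRoot ((X : F[X]) ^ (2 * m)))) 2 ▸ (IsUnit.mk0 _ h2).map _)
    (fun c hc => ?_) fun s hs => ?_
  · obtain ⟨a, ha⟩ := exists_scalar_adjoinRoot_X_pow c
    have ha' := ha.map (negRoot F (2 * m))
    rw [map_sub, map_smul, map_one] at ha'
    have hc : c * negRoot F (2 * m) c = 1 := hc
    have : IsNilpotent ((1 - a * a) • (1 : AdjoinRoot ((X : F[X]) ^ (2 * m)))) := by
      convert (Commute.all _ _).isNilpotent_add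
        ((Commute.all c _).isNilpotent_mul_left ha') (ha.smul a) using 1
      rw [mul_sub, hc, smul_sub, smul_smul, sub_smul, one_smul, mul_smul_comm, mul_one]
      abel
    rcases mul_self_eq_one_iff.mp
      (sub_eq_zero.mp (eq_zero_of_isNilpotent_smul_one this)).symm with rfl | rfl
    · left; simpa using ha
    · right; simpa using ha
  · obtain ⟨a, ha⟩ := exists_scalar_adjoinRoot_X_pow s
    have ha' := ha.map (negRoot F (2 * m))
    have hs : negRoot F (2 * m) s = -s := hs
    rw [map_sub, map_smul, map_one, hs] at ha'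
    have : IsNilpotent ((2 * a) • (1 : AdjoinRoot ((X : F[X]) ^ (2 * m)))) := by
      convert ((Commute.all _ _).isNilpotent_add ha ha').neg using 1
      rw [two_mul a, add_smul]
      abel
    rw [(mul_eq_zero.mp (eq_zero_of_isNilpotent_smul_one this)).resolve_left h2] at ha
    simpa using ha

section Form

variable [FiniteDimensional F V] {B : LinearMap.BilinForm F V}

theorem adj_pow (hB : B.Nondegenerate) (x : End F V) (k : ℕ) :
    adj B hB (x ^ k) = adj B hB x ^ k := by
  induction k with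
  | zero => rw [pow_zero, pow_zero, adj_one]
  | succ k ih => rw [pow_succ, adj_mul, ih, pow_succ']

theorem adj_aeval (hB : B.Nondegenerate) (x : End F V) (p : F[X]) :
    adj B hB (aeval x p) = aeval (adj B hB x) p := by
  induction p using Polynomial.induction_on' with
  | add a b ha hb => rw [map_add, map_add, map_add, ha, hb]
  | monomial j a =>
    rw [aeval_monomial, aeval_monomial, ← Algebra.smul_def, ← Algebra.smul_def, adj_smul, adj_pow]

omit [FiniteDimensional F V] in
theorem isUnit_add_one_of_unipotent (h2 : (2 : F) ≠ 0) {u : End F V} (hn : IsNilpotent (u - 1)) :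
    IsUnit (u + 1) := by
  have h : IsUnit (2 : End F V) :=
    map_ofNat (algebraMap F (End F V)) 2 ▸ (IsUnit.mk0 _ h2).map _
  have := hn.isUnit_add_left_of_commute h (Commute.ofNat_right _ _)
  rwa [← one_add_one_eq_two, show 1 + 1 + (u - 1) = u + 1 by abel] at this

theorem card_centralizer_regular [Fintype F] (h2 : (2 : F) ≠ 0) (hB : B.Nondegenerate)
    (hA : B.IsAlt) {m : ℕ} (hm : 1 ≤ m) (hV : finrank F V = 2 * m) {u : End F V}
    (hu : ∀ x y, B (u x) (u y) = B x y) (hn : IsNilpotent (u - 1))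
    (hk : finrank F (LinearMap.ker (u - 1)) ≤ 1) :
    Nat.card {c : End F V // Commute c u ∧ ∀ x y, B (c x) (c y) = B x y} =
      2 * Fintype.card F ^ m := by
  have hε : ∀ x y, B y x = (-1 : F) * B x y := fun x y => by rw [← hA.neg_eq, neg_one_mul]
  set w := adj B hB u with hw
  have hwu : w * u = 1 := (adj_mul_self_eq_one_iff B hB u).mpr hu
  have huw : u * w = 1 := mul_eq_one_comm.mp hwu
  have hc : Commute u w := huw.trans hwu.symm
  have hY : u - w = (w * (u + 1)) * (u - 1) := by
    rw [mul_assoc, show (u + 1) * (u - 1) = u * u - 1 by noncomm_ring, mul_sub, ← mul_assoc, hwu,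
      one_mul, mul_one]
  have hU : IsUnit (w * (u + 1)) :=
    (IsUnit.of_mul_eq_one _ hwu).mul (isUnit_add_one_of_unipotent h2 hn)
  have hYn : IsNilpotent (u - w) := by
    rw [hY]
    refine Commute.isNilpotent_mul_left ?_ hn
    exact (hc.symm.sub_right (Commute.one_right _)).mul_left
      (((Commute.refl u).sub_right (Commute.one_right _)).add_left (Commute.one_left _))
  have hs := similar_cyc_of_finrank_ker_le_one hYn (by
    rw [hY, End.mul_eq_comp, LinearMap.ker_comp,
      LinearMap.ker_eq_bot.mpr ((End.isUnit_iff _).mp hU).1, Submodule.comap_bot]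
    exact hk)
  rw [hV] at hs
  have hσ : adj B hB (u - w) = -(u - w) := by rw [map_sub, hw, adj_adj B hB hε, neg_sub]
  let φ : AdjoinRoot ((X : F[X]) ^ (2 * m)) →ₐ[F] End F V :=
    Ideal.Quotient.liftₐ (Ideal.span {(X : F[X]) ^ (2 * m)}) (aeval (u - w)) fun a ha =>
      (aeval_eq_zero_iff_of_cyc hs a).mpr (Ideal.mem_span_singleton.mp ha)
  have hφ : ∀ p, φ (AdjoinRoot.mk _ p) = aeval (u - w) p := fun p => rfl
  have hinj : Function.Injective φ := by
    rw [injective_iff_map_eq_zero]
    intro a ha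
    obtain ⟨p, rfl⟩ := AdjoinRoot.mk_surjective a
    exact AdjoinRoot.mk_eq_zero.mpr ((aeval_eq_zero_iff_of_cyc hs p).mp ha)
  have hτ : ∀ r, φ (negRoot F (2 * m) r) = adj B hB (φ r) := fun r => by
    obtain ⟨p, rfl⟩ := AdjoinRoot.mk_surjective r
    rw [negRoot_mk, ← aeval_algHom_apply, map_neg, ← AdjoinRoot.mk_X, hφ, hφ, aeval_X, adj_aeval,
      hσ]
  rw [← card_unitary_negRoot h2 hm]
  symm
  refine Nat.card_congr (Equiv.ofBijective (fun c => ⟨φ c.1, ?_, ?_⟩) ⟨?_, ?_⟩)
  · obtain ⟨p, hp⟩ := AdjoinRoot.mk_surjective c.1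
    rw [← hp, hφ]
    exact (commute_aeval ((Commute.refl u).sub_right hc) p).symm
  · rw [← adj_mul_self_eq_one_iff B hB, ← hτ, ← map_mul, mul_comm _ c.1, c.2, map_one]
  · exact fun a b h => Subtype.ext (hinj (congrArg Subtype.val h))
  · rintro ⟨c, hc1, hc2⟩
    have hcw : Commute c w := by
      have : w * (u * c) * w = w * (c * u) * w := by rw [hc1.eq]
      rw [← mul_assoc, hwu, one_mul, mul_assoc, mul_assoc, huw, mul_one] at this
      exact this
    obtain ⟨p, rfl⟩ := exists_aeval_of_commute_cyc hs (hc1.sub_right hcw)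
    refine ⟨⟨AdjoinRoot.mk _ p, hinj ?_⟩, rfl⟩
    rw [mul_comm (AdjoinRoot.mk _ p), map_mul, hτ, hφ, map_one, (adj_mul_self_eq_one_iff B hB _).mpr hc2]

/-- Regular unipotent isometries. -/
structure RegU (B : LinearMap.BilinForm F V) (u : End F V) : Prop where
  iso : ∀ x y, B (u x) (u y) = B x y
  sim : Similar (u - 1) (cyc ((X : F[X]) ^ finrank F V))

/-- The top quadratic form of a regular unipotent element. -/
noncomputable def topQ (B : LinearMap.BilinForm F V) (u : End F V) (v : V) : F :=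
  B v (((u - 1) ^ (finrank F V - 1)) v)

omit [FiniteDimensional F V] in
theorem RegU.pow_eq_zero_iff {u : End F V} (h : RegU B u) (j : ℕ) :
    (u - 1) ^ j = 0 ↔ finrank F V ≤ j := by
  rw [(h.sim.pow j).eq_zero_iff, cyc_X_pow_pow_eq_zero_iff]

omit [FiniteDimensional F V] in
theorem RegU.top_sub_one {u : End F V} (h : RegU B u) (w : V) :
    ((u - 1) ^ (finrank F V - 1)) ((u - 1) w) = 0 := by
  rw [← End.mul_apply, ← pow_succ, (h.pow_eq_zero_iff _).mpr (by omega), LinearMap.zero_apply]

omit [FiniteDimensional F V] in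
theorem RegU.orth_top {u : End F V} (h : RegU B u) (w y : V) :
    B ((u - 1) w) (((u - 1) ^ (finrank F V - 1)) y) = 0 := by
  set z := ((u - 1) ^ (finrank F V - 1)) y
  have hz : u z = z := by
    have : (u - 1) z = 0 := by
      rw [← End.mul_apply, ← pow_succ', (h.pow_eq_zero_iff _).mpr (by omega), LinearMap.zero_apply]
    exact sub_eq_zero.mp this
  rw [LinearMap.sub_apply, map_sub, LinearMap.sub_apply, End.one_apply, ← h.iso w z, hz, sub_self]

omit [FiniteDimensional F V] in
theorem RegU.exists_top {u : End F V} (hB : B.Nondegenerate) (h : RegU B u)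
    (hV : 0 < finrank F V) : ∃ c : F, c ≠ 0 ∧ ∀ t, (∃ v, topQ B u v = t) ↔ ∃ x, x * x * c = t := by
  obtain ⟨e, he⟩ := h.sim
  have hv : ∀ v, ∃ (x : F) (w : V), v = x • e.symm 1 + (u - 1) w := fun v => by
    obtain ⟨r, hr⟩ := AdjoinRoot.mk_surjective (e v)
    refine ⟨r.coeff 0, aeval (u - 1) r.divX (e.symm 1), e.injective ?_⟩
    have := intertwine_aeval (f := u - 1) (g := cyc _) e.toLinearMap he r (e.symm 1)
    rw [aeval_eq_scalar_add (u - 1), aeval_cyc_apply, hr] at this
    simpa using this.symm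
  have hQ : ∀ (x y : F) (w w' : V), B (x • e.symm 1 + (u - 1) w)
      (((u - 1) ^ (finrank F V - 1)) (y • e.symm 1 + (u - 1) w')) =
        x * y * topQ B u (e.symm 1) := fun x y w w' => by
    rw [map_add (_ ^ _), h.top_sub_one, add_zero, map_add, LinearMap.add_apply, h.orth_top,
      add_zero, map_smul, map_smul, LinearMap.smul_apply, map_smul, smul_eq_mul, smul_eq_mul,
      mul_assoc, topQ]
  refine ⟨topQ B u (e.symm 1), fun h0 => ?_, fun t => ⟨?_, ?_⟩⟩
  · have : (u - 1) ^ (finrank F V - 1) = 0 := LinearMap.ext fun v => hB.2 _ fun v' => by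
      obtain ⟨x, w, rfl⟩ := hv v
      obtain ⟨x', w', rfl⟩ := hv v'
      rw [hQ, h0, mul_zero]
    rw [h.pow_eq_zero_iff] at this
    omega
  · rintro ⟨v, rfl⟩
    obtain ⟨x, w, rfl⟩ := hv v
    exact ⟨x, (hQ x x w w).symm⟩
  · rintro ⟨x, rfl⟩
    exact ⟨_, hQ x x 0 0⟩

theorem exists_mul_mul_eq_one_iff {c : F} (hc : c ≠ 0) : (∃ x, x * x * c = 1) ↔ IsSquare c := by
  constructor
  · rintro ⟨x, hx⟩
    exact ⟨x * c, by linear_combination (-c) * hx⟩
  · rintro ⟨y, rfl⟩
    have : y ≠ 0 := left_ne_zero_of_mul hc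
    exact ⟨y⁻¹, by field_simp⟩

theorem exists_sqrt_unipotent [Finite F] (h2 : (2 : F) ≠ 0) {A : Type*} [Ring A] [Algebra F A]
    {s : A} (hs : IsNilpotent (s - 1)) : ∃ k, s ^ k * s ^ k = s := by
  obtain ⟨p, hp⟩ := CharP.exists F
  have := Fact.mk (CharP.char_is_prime F p)
  obtain ⟨j, hj⟩ := hs
  have h1 : s ^ p ^ j = 1 := by
    have h0 : (s - 1) ^ p ^ j = 0 := pow_eq_zero_of_le
      (Nat.lt_pow_self (Fact.out : p.Prime).one_lt).le hj
    rcases subsingleton_or_nontrivial A with _ | _
    · exact Subsingleton.elim _ _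
    have : CharP A p := charP_of_injective_algebraMap (algebraMap F A).injective p
    rwa [sub_pow_char_pow_of_commute _ _ (Commute.one_right _), one_pow, sub_eq_zero] at h0
  have hodd : Odd p := (Fact.out : p.Prime).odd_of_ne_two (by
    rintro rfl; exact h2 (CharP.cast_eq_zero F 2))
  obtain ⟨k, hk⟩ := hodd.pow (n := j)
  exact ⟨k + 1, by rw [← pow_add, show k + 1 + (k + 1) = p ^ j + 1 by omega, pow_succ, h1, one_mul]⟩

omit [FiniteDimensional F V] in
theorem topQ_conj {u u' : End F V} (g : V →ₗ[F] V) (hg : ∀ v, g ((u - 1) v) = (u' - 1) (g v))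
    (v : V) : topQ B u' (g v) = B (g v) (g (((u - 1) ^ (finrank F V - 1)) v)) := by
  rw [topQ, intertwine_pow g hg]

theorem RegU.exists_conj [Finite F] (h2 : (2 : F) ≠ 0) (hB : B.Nondegenerate) (hA : B.IsAlt)
    (hV : 0 < finrank F V) {u u' : End F V} (h : RegU B u) (h' : RegU B u')
    (hi : (∃ v, topQ B u v = 1) ↔ ∃ v, topQ B u' v = 1) :
    ∃ k : End F V, (∀ x y, B (k x) (k y) = B x y) ∧ k * u = u' * k := by
  classical
  have := Fintype.ofFinite F
  have hε : ∀ x y, B y x = (-1 : F) * B x y := fun x y => by rw [← hA.neg_eq, neg_one_mul]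
  obtain ⟨e, he⟩ := h.sim.trans h'.sim.symm
  set g : End F V := e.toLinearMap with hg
  have hgu : g * u = u' * g := LinearMap.ext fun v => by simpa [hg] using he v
  have hw := mul_eq_one_comm.mp ((adj_mul_self_eq_one_iff B hB u).mpr h.iso)
  have hw' := (adj_mul_self_eq_one_iff B hB u').mpr h'.iso
  set s := adj B hB g * g with hs
  have hss : adj B hB s = s := by rw [hs, adj_mul, adj_adj B hB hε]
  have hsu : Commute s u := by
    have h1 := congrArg (adj B hB) hgu
    rw [adj_mul, adj_mul] at h1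
    have h3 : adj B hB g * u' = u * adj B hB g := by
      calc _ = (u * adj B hB u) * adj B hB g * u' := by rw [hw, one_mul]
        _ = u * adj B hB g * (adj B hB u' * u') := by
          rw [mul_assoc u, h1]; simp only [mul_assoc]
        _ = _ := by rw [hw', mul_one]
    change adj B hB g * g * u = u * (adj B hB g * g)
    rw [mul_assoc, hgu, ← mul_assoc, h3, mul_assoc]
  have hsB : ∀ x y, B (s x) y = B (g x) (g y) := fun x y => adj_left B hB g _ _
  obtain ⟨a, r, hr, hsa⟩ := exists_scalar_of_commute_cyc h.sim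
    (hsu.sub_right (Commute.one_right _))
  have hQ : ∀ v, topQ B u' (g v) = a * topQ B u v := fun v => by
    rw [topQ_conj (u := u) g he, ← hsB, hsa, LinearMap.add_apply, map_add, LinearMap.add_apply,
      End.mul_apply, h.orth_top, add_zero, LinearMap.smul_apply, map_smul, LinearMap.smul_apply]
    rfl
  obtain ⟨c, hc, hct⟩ := h.exists_top hB hV
  obtain ⟨c', hc', hct'⟩ := h'.exists_top hB hV
  have hval : ∀ t, (∃ v, topQ B u' v = t) ↔ ∃ x, x * x * (a * c) = t := fun t => by
    constructor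
    · rintro ⟨v, rfl⟩
      obtain ⟨v, rfl⟩ := e.surjective v
      obtain ⟨x, hx⟩ := (hct _).mp ⟨v, rfl⟩
      exact ⟨x, by rw [show e v = g v from rfl, hQ, ← hx]; ring⟩
    · rintro ⟨x, rfl⟩
      obtain ⟨v, hv⟩ := (hct _).mpr ⟨x, rfl⟩
      exact ⟨g v, by rw [hQ, hv]; ring⟩
  have ha : a ≠ 0 := by
    rintro rfl
    obtain ⟨x, hx⟩ := (hval c').mp ((hct' _).mpr ⟨1, by ring⟩)
    exact hc' (by rw [← hx]; ring)
  rw [hct, hval, exists_mul_mul_eq_one_iff hc, exists_mul_mul_eq_one_iff (mul_ne_zero ha hc),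
    ← quadraticChar_one_iff_isSquare hc, ← quadraticChar_one_iff_isSquare (mul_ne_zero ha hc),
    map_mul] at hi
  obtain ⟨b, hb⟩ : IsSquare a := by
    rw [← quadraticChar_one_iff_isSquare ha]
    rcases quadraticChar_dichotomy ha with h1 | h1
    · exact h1
    · rcases quadraticChar_dichotomy hc with h3 | h3 <;> rw [h1, h3] at hi <;> simp at hi
  obtain ⟨k, hk⟩ := exists_sqrt_unipotent h2 (s := a⁻¹ • s) (by
    rw [hsa, smul_add, smul_smul, inv_mul_cancel₀ ha, one_smul, add_sub_cancel_left]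
    exact (hr.isNilpotent_mul_right ⟨_, (h.pow_eq_zero_iff _).mpr le_rfl⟩).smul _)
  set d := b • (a⁻¹ • s) ^ k with hd
  have hdd : adj B hB d * d = s := by
    rw [hd, adj_smul, adj_pow, adj_smul, hss, smul_mul_smul_comm, hk, ← hb, smul_smul,
      mul_inv_cancel₀ ha, one_smul]
  have hdB : ∀ x y, B (d x) (d y) = B (g x) (g y) := fun x y => by
    rw [← hsB, ← hdd, End.mul_apply, adj_left]
  have hdu : Commute d u := ((hsu.smul_left _).pow_left _).smul_left _
  have hd1 : IsUnit d := (End.isUnit_iff _).mpr ((LinearMap.injective_iff_surjective.mp ·) |> fun f =>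
    have hi : Function.Injective d := (injective_iff_map_eq_zero d).mpr fun x hx =>
      e.injective (hB.1 _ (fun y => by
        obtain ⟨y, rfl⟩ := e.surjective y
        have := hdB x y
        rw [hx, map_zero, LinearMap.zero_apply] at this
        exact this.symm) |>.trans (map_zero e).symm)
    ⟨hi, f hi⟩)
  clear_value d
  obtain ⟨d', rfl⟩ : ∃ d' : (End F V)ˣ, d'.val = d := hd1
  refine ⟨g * ↑d'⁻¹, fun x y => ?_, ?_⟩
  · rw [End.mul_apply, End.mul_apply, ← hdB, ← End.mul_apply, ← End.mul_apply, Units.mul_inv]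
    rfl
  · rw [mul_assoc, hdu.units_inv_left.eq, ← mul_assoc, hgu, mul_assoc]

theorem RegU.exists_scale (hB : B.Nondegenerate) (hA : B.IsAlt) {u : End F V} (h : RegU B u)
    {a : F} (ha : a ≠ 0) :
    ∃ u', RegU B u' ∧ ∀ t, (∃ v, topQ B u' v = t) ↔ ∃ v, a * topQ B u v = t := by
  obtain ⟨e, he⟩ := exists_equiv_alt B (a • B) hB
    ⟨fun x hx => hB.1 x fun y => by simpa [ha] using hx y,
      fun x hx => hB.2 x fun y => by simpa [ha] using hx y⟩ hA
    (fun x => by simp [hA.self_eq_zero]) rfl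
  have h1 : ∀ v, e ((u - 1) v) = (e.conj u - 1) (e v) := fun v => by simp
  have hQ : ∀ v, topQ B (e.conj u) (e v) = a * topQ B u v := fun v =>
    (topQ_conj (u := u) e.toLinearMap h1 v).trans (he _ _)
  refine ⟨e.conj u, ⟨fun x y => ?_, (H65.Similar.symm ⟨e, h1⟩).trans h.sim⟩, fun t => ⟨?_, ?_⟩⟩
  · obtain ⟨x, rfl⟩ := e.surjective x
    obtain ⟨y, rfl⟩ := e.surjective y
    simp [he, h.iso]
  · rintro ⟨v, rfl⟩
    obtain ⟨v, rfl⟩ := e.surjective v
    exact ⟨v, (hQ v).symm⟩
  · rintro ⟨v, rfl⟩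
    exact ⟨e v, hQ v⟩

end Form

theorem two_ne_zero_of_odd_card [Fintype F] (h : Odd (Fintype.card F)) : (2 : F) ≠ 0 := fun h2 => by
  have := FiniteField.even_card_of_char_two (ringChar.eq_iff.mpr
    (CharTwo.of_one_ne_zero_of_two_eq_zero one_ne_zero h2))
  rw [Nat.odd_iff] at h
  omega

theorem finrank_sp (m : ℕ) : finrank F (Fin m ⊕ Fin m → F) = 2 * m := by simp [two_mul]

theorem regU_iff {m : ℕ} (hm : 1 ≤ m) (u : Matrix.symplecticGroup (Fin m) F) :
    RegU (sympBilin m F) (Matrix.toLin' u.1) ↔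
      (u.1 - 1) ^ (2 * m) = 0 ∧ (u.1 - 1).rank = 2 * m - 1 := by
  constructor
  · intro h
    have h1 := (h.pow_eq_zero_iff (2 * m)).mpr (finrank_sp m).le
    rw [← toLin'_sub_one, ← toLin'_pow', map_eq_zero_iff _ Matrix.toLin'.injective] at h1
    have h4 := rank_add_finrank_ker (u.1 - 1)
    have h5 := finrank_ker_cyc_X_pow (F := F) (finrank F (Fin m ⊕ Fin m → F)) 1
    rw [pow_one, ← h.sim.finrank_ker, finrank_sp] at h5
    rw [toLin'_sub_one, h5, Fintype.card_sum, Fintype.card_fin] at h4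
    exact ⟨h1, by omega⟩
  · rintro ⟨h1, h2⟩
    refine ⟨(mem_symplecticGroup_iff _).mp u.2, ?_⟩
    have := similar_cyc_of_regular (N := u.1 - 1) ⟨_, h1⟩ (by simp; omega)
    rwa [toLin'_sub_one, ← Module.finrank_fintype_fun_eq_card F] at this

end H66
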